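/-
A strongly regular graph with parameters (100, 22, 0, 6) is the point-block graph of a Steiner system
attached to any of its vertices.
-/
import Mathlib
import Cfsg.Prelude.Def_Sporadic_a

set_option autoImplicit false
set_option linter.unusedVariables false
set_option linter.unusedSectionVars false

namespace CfsgLib.HSG

open Cfsg Finset

universe u

variable {V : Type u} [Fintype V] {G : SimpleGraph V} [DecidableRel G.Adj]

section
variable (hG : G.IsSRGWith 100 22 0 6)
include hG

theorem card_nbr (x : V) : (G.neighborFinset x).card = 22 := by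
  rw [SimpleGraph.card_neighborFinset_eq_degree]
  exact hG.regular x

theorem no_triangle {x y z : V} (h1 : G.Adj x y) (h2 : G.Adj x z) : ¬ G.Adj y z := by
  intro h3
  have h4 := hG.of_adj x y h1
  have h5 : z ∈ G.commonNeighbors x y := ⟨h2, h3⟩
  have h6 : Fintype.card (G.commonNeighbors x y) = 0 := h4
  rw [Fintype.card_eq_zero_iff] at h6
  exact h6.false ⟨z, h5⟩

theorem common_six {x y : V} (hne : x ≠ y) (hn : ¬ G.Adj x y) :
    (univ.filter fun z => G.Adj x z ∧ G.Adj y z).card = 6 := by
  have h4 : Fintype.card (G.commonNeighbors x y) = 6 := hG.of_not_adj hne hn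
  rw [← h4, Fintype.card_subtype]
  rfl

end

/-- The non-neighbours of a vertex. -/
def Wf (G : SimpleGraph V) [DecidableRel G.Adj] [DecidableEq V] (v : V) : Finset V :=
  univ.filter fun w => w ≠ v ∧ ¬ G.Adj v w

variable [DecidableEq V]

theorem mem_Wf {v w : V} : w ∈ Wf G v ↔ w ≠ v ∧ ¬ G.Adj v w := by simp [Wf]

section
variable (hG : G.IsSRGWith 100 22 0 6) (v : V)
include hG

theorem card_Wf : (Wf G v).card = 77 := by
  have h1 : (Wf G v) = (univ.erase v) \ G.neighborFinset v := by
    ext w
    simp only [mem_Wf, mem_sdiff, mem_erase, mem_univ, and_true, SimpleGraph.mem_neighborFinset]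
  have h2 : G.neighborFinset v ⊆ univ.erase v := by
    intro w hw
    rw [SimpleGraph.mem_neighborFinset] at hw
    simp only [mem_erase, mem_univ, and_true]
    exact hw.ne'
  rw [h1, card_sdiff_of_subset h2, card_nbr hG, card_erase_of_mem (mem_univ _), card_univ, hG.card]

/-- Neighbours of a neighbour of the base vertex, other than the base vertex, are non-neighbours. -/
theorem nbr_filter {a : V} (ha : G.Adj v a) :
    ((Wf G v).filter fun w => G.Adj a w).card = 21 := by
  have h1 : (Wf G v).filter (fun w => G.Adj a w) = (G.neighborFinset a).erase v := by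
    ext w
    simp only [mem_filter, mem_Wf, mem_erase, SimpleGraph.mem_neighborFinset]
    constructor
    · rintro ⟨⟨h2, -⟩, h3⟩
      exact ⟨h2, h3⟩
    · rintro ⟨h2, h3⟩
      exact ⟨⟨h2, fun h4 => no_triangle hG ha h4 h3⟩, h3⟩
  rw [h1, card_erase_of_mem (by simpa using ha.symm), card_nbr hG]

theorem nbr2_filter {a b : V} (ha : G.Adj v a) (hb : G.Adj v b) (hne : a ≠ b) :
    ((Wf G v).filter fun w => G.Adj a w ∧ G.Adj b w).card = 5 := by
  have hn : ¬ G.Adj a b := no_triangle hG ha hb
  have h1 : (Wf G v).filter (fun w => G.Adj a w ∧ G.Adj b w) =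
      (univ.filter fun z => G.Adj a z ∧ G.Adj b z).erase v := by
    ext w
    simp only [mem_filter, mem_Wf, mem_erase, mem_univ, true_and]
    constructor
    · rintro ⟨⟨h2, -⟩, h3⟩
      exact ⟨h2, h3⟩
    · rintro ⟨h2, h3⟩
      exact ⟨⟨h2, fun h4 => no_triangle hG ha h4 h3.1⟩, h3⟩
  rw [h1, card_erase_of_mem (by simp [ha.symm, hb.symm]), common_six hG hne hn]

/-- The common neighbours of the base vertex and a non-neighbour. -/
theorem bk_card {w : V} (hw : w ∈ Wf G v) : (univ.filter fun a => G.Adj v a ∧ G.Adj w a).card = 6 :=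
  common_six hG (mem_Wf.mp hw).1.symm (mem_Wf.mp hw).2

theorem adj_in_W {w : V} (hw : w ∈ Wf G v) : ((Wf G v).filter fun x => G.Adj w x).card = 16 := by
  have hwv := mem_Wf.mp hw
  have h1 : G.neighborFinset w = ((Wf G v).filter fun x => G.Adj w x) ∪ (univ.filter fun a => G.Adj v a ∧ G.Adj w a) := by
    ext x
    simp only [SimpleGraph.mem_neighborFinset, mem_union, mem_filter, mem_Wf, mem_univ, true_and]
    constructor
    · intro h
      by_cases hv : G.Adj v x
      · exact Or.inr ⟨hv, h⟩
      · refine Or.inl ⟨⟨?_, hv⟩, h⟩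
        rintro rfl
        exact hwv.2 h.symm
    · rintro (h | h)
      · exact h.2
      · exact h.2
  have h2 : Disjoint ((Wf G v).filter fun x => G.Adj w x) (univ.filter fun a => G.Adj v a ∧ G.Adj w a) := by
    rw [Finset.disjoint_left]
    intro x hx hx2
    simp only [mem_filter, mem_Wf, mem_univ, true_and] at hx hx2
    exact hx.1.2 hx2.1
  have h3 := card_nbr hG w
  rw [h1, card_union_of_disjoint h2, bk_card hG v hw] at h3
  omega

end

/-- The variance argument. -/
theorem var_lemma {ι : Type*} (N : Finset ι) (f : ι → ℕ) (h1 : ∑ i ∈ N, f i = 120) (h2 : ∑ i ∈ N, f i ^ 2 = 240)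
    (h3 : N.card = 60) : ∀ i ∈ N, f i = 2 := by
  have h4 : ∑ i ∈ N, (((f i : ℤ) - 2) ^ 2) = 0 := by
    have e : ∀ i ∈ N, (((f i : ℤ) - 2) ^ 2) = (f i ^ 2 : ℕ) - 4 * (f i : ℕ) + 4 := by
      intro i _
      push_cast
      ring
    rw [Finset.sum_congr rfl e, Finset.sum_add_distrib, Finset.sum_sub_distrib, ← Finset.mul_sum]
    have h5 : ∑ i ∈ N, ((f i ^ 2 : ℕ) : ℤ) = 240 := by
      rw [← Nat.cast_sum, h2]
      rfl
    have h6 : ∑ i ∈ N, ((f i : ℕ) : ℤ) = 120 := by
      rw [← Nat.cast_sum, h1]
      rfl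
    rw [h5, h6, Finset.sum_const, h3]
    norm_num
  intro i hi
  have h7 := (Finset.sum_eq_zero_iff_of_nonneg (fun j _ => sq_nonneg _)).mp h4 i hi
  have h8 : (f i : ℤ) - 2 = 0 := by
    simpa using h7
  omega

section
variable (hG : G.IsSRGWith 100 22 0 6) (v : V)
include hG

/-- Two non-adjacent non-neighbours of the base vertex have two common neighbours among its neighbours. -/
theorem meet_two {w w' : V} (hw : w ∈ Wf G v) (hw' : w' ∈ Wf G v) (hne : w ≠ w') (hn : ¬ G.Adj w w') :
    (univ.filter fun a => G.Adj v a ∧ G.Adj w a ∧ G.Adj w' a).card = 2 := by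
  set Bw : Finset V := univ.filter fun a => G.Adj v a ∧ G.Adj w a with hBw
  set i : V → ℕ := fun x => (Bw.filter fun a => G.Adj x a).card with hi
  set W1 := (Wf G v).erase w with hW1
  set Nn := W1.filter fun x => ¬ G.Adj w x with hNn
  have hBc : Bw.card = 6 := bk_card hG v hw
  -- the count of the non-adjacent ones
  have hc : Nn.card = 60 := by
    have h1 := card_Wf hG v
    have h2 := adj_in_W hG v hw
    have h3 : W1.card = 76 := by
      rw [hW1, card_erase_of_mem hw, h1]
    have h4 := Finset.card_filter_add_card_filter_not (s := W1) (fun x => G.Adj w x)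
    have h5 : W1.filter (fun x => G.Adj w x) = (Wf G v).filter (fun x => G.Adj w x) := by
      ext x
      simp only [mem_filter, hW1, mem_erase]
      constructor
      · rintro ⟨⟨-, h6⟩, h7⟩
        exact ⟨h6, h7⟩
      · rintro ⟨h6, h7⟩
        exact ⟨⟨h7.ne', h6⟩, h7⟩
    rw [h5, h2, h3] at h4
    rw [hNn]
    omega
  have hadj0 : ∀ x ∈ W1, G.Adj w x → i x = 0 := by
    intro x _ hx
    rw [hi]
    simp only [card_eq_zero, filter_eq_empty_iff]
    intro a ha h2
    simp only [hBw, mem_filter, mem_univ, true_and] at ha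
    exact no_triangle hG hx ha.2 h2
  -- the sum over the non-adjacent ones equals the sum over all
  have hsplit : ∀ F : ℕ → ℕ, F 0 = 0 → ∑ x ∈ W1, F (i x) = ∑ x ∈ Nn, F (i x) := by
    intro F hF
    rw [hNn, Finset.sum_filter]
    refine Finset.sum_congr rfl fun x hx => ?_
    by_cases h : G.Adj w x
    · simp [h, hadj0 x hx h, hF]
    · simp [h]
  have hone : ∀ a ∈ Bw, (W1.filter fun x => G.Adj x a).card = 20 := by
    intro a ha
    simp only [hBw, mem_filter, mem_univ, true_and] at ha
    have h1 := nbr_filter hG v ha.1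
    have h2 : W1.filter (fun x => G.Adj x a) = ((Wf G v).filter fun x => G.Adj a x).erase w := by
      ext x
      simp only [mem_filter, mem_erase, hW1]
      constructor
      · rintro ⟨⟨h3, h4⟩, h5⟩
        exact ⟨h3, h4, h5.symm⟩
      · rintro ⟨h3, h4, h5⟩
        exact ⟨⟨h3, h4⟩, h5.symm⟩
    rw [h2, card_erase_of_mem (by simp [hw, ha.2.symm]), h1]
  have hsum1 : ∑ x ∈ W1, i x = 120 := by
    have h1 : ∑ x ∈ W1, i x = ∑ a ∈ Bw, (W1.filter fun x => G.Adj x a).card := by
      simp only [hi, card_filter]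
      rw [Finset.sum_comm]
    rw [h1, Finset.sum_congr rfl hone, Finset.sum_const, hBc]
    rfl
  have hpair : ∀ a ∈ Bw, ∀ b ∈ Bw, (W1.filter fun x => G.Adj x a ∧ G.Adj x b).card = if a = b then 20 else 4 := by
    intro a ha b hb
    by_cases hab : a = b
    · subst hab
      simp only [and_self, if_true]
      exact hone a ha
    · rw [if_neg hab]
      simp only [hBw, mem_filter, mem_univ, true_and] at ha hb
      have h1 := nbr2_filter hG v ha.1 hb.1 hab
      have h2 : W1.filter (fun x => G.Adj x a ∧ G.Adj x b) = ((Wf G v).filter fun x => G.Adj a x ∧ G.Adj b x).erase w := by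
        ext x
        simp only [mem_filter, mem_erase, hW1]
        constructor
        · rintro ⟨⟨h3, h4⟩, h5, h6⟩
          exact ⟨h3, h4, h5.symm, h6.symm⟩
        · rintro ⟨h3, h4, h5, h6⟩
          exact ⟨⟨h3, h4⟩, h5.symm, h6.symm⟩
      rw [h2, card_erase_of_mem (by simp [hw, ha.2.symm, hb.2.symm]), h1]
  have hsum2 : ∑ x ∈ W1, i x ^ 2 = 240 := by
    have h1 : ∀ x, i x ^ 2 = ∑ a ∈ Bw, ∑ b ∈ Bw, if (G.Adj x a ∧ G.Adj x b) then 1 else 0 := by
      intro x
      simp only [hi, card_filter, sq, Finset.sum_mul_sum]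
      refine Finset.sum_congr rfl fun a _ => Finset.sum_congr rfl fun b _ => ?_
      by_cases h3 : G.Adj x a <;> by_cases h4 : G.Adj x b <;> simp [h3, h4]
    simp only [h1]
    rw [Finset.sum_comm]
    have h2 : ∀ a ∈ Bw, ∑ x ∈ W1, ∑ b ∈ Bw, (if (G.Adj x a ∧ G.Adj x b) then 1 else 0) = 20 + 4 * 5 := by
      intro a ha
      rw [Finset.sum_comm]
      have h3 : ∀ b ∈ Bw, ∑ x ∈ W1, (if (G.Adj x a ∧ G.Adj x b) then 1 else 0) = if a = b then 20 else 4 := by
        intro b hb
        rw [← hpair a ha b hb, card_filter]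
      rw [Finset.sum_congr rfl h3]
      have h4 : (Bw.erase a).card = 5 := by
        rw [card_erase_of_mem ha, hBc]
      rw [← Finset.add_sum_erase _ _ ha, if_pos rfl]
      congr 1
      rw [Finset.sum_congr rfl (g := fun _ => 4) (fun b hb => if_neg (Finset.ne_of_mem_erase hb).symm), Finset.sum_const, h4]
      rfl
    rw [Finset.sum_congr rfl h2, Finset.sum_const, hBc]
    rfl
  have hN1 : ∑ x ∈ Nn, i x = 120 := by
    rw [← hsum1]
    exact (hsplit id rfl).symm
  have hN2 : ∑ x ∈ Nn, i x ^ 2 = 240 := by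
    rw [← hsum2]
    exact (hsplit (fun n => n ^ 2) rfl).symm
  have hmem : w' ∈ Nn := by
    simp only [hNn, hW1, mem_filter, mem_erase]
    exact ⟨⟨hne.symm, hw'⟩, hn⟩
  have h := var_lemma Nn i hN1 hN2 hc w' hmem
  rw [hi] at h
  simp only [hBw] at h
  rw [Finset.filter_filter] at h
  rw [← h]
  congr 1
  ext a
  simp only [mem_filter, mem_univ, true_and]
  tauto

end

end CfsgLib.HSG
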