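/-
The Steiner system attached to a vertex of a strongly regular graph with parameters (100, 22, 0, 6).
-/
import Cfsg.Agent.Lib.HSG.Basic
import Cfsg.Agent.S0428

set_option autoImplicit false
set_option linter.unusedVariables false
set_option linter.unusedSectionVars false

namespace CfsgLib.HSG

open Cfsg Finset

universe u

variable {V : Type u} [Fintype V] {G : SimpleGraph V} [DecidableRel G.Adj] [DecidableEq V]

/-- The points attached to a vertex. -/
abbrev Pv (G : SimpleGraph V) (v : V) : Type u := {x // G.Adj v x}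

/-- The block of a vertex. -/
def bk (v w : V) : Finset (Pv G v) := univ.filter fun a => G.Adj w a.1

/-- The family of blocks. -/
def Bv (G : SimpleGraph V) [DecidableRel G.Adj] (v : V) : Set (Finset (Pv G v)) := {b | ∃ w ∈ Wf G v, b = bk v w}

theorem mem_bk {v w : V} {a : Pv G v} : a ∈ bk v w ↔ G.Adj w a.1 := by simp [bk]

section
variable (hG : G.IsSRGWith 100 22 0 6) (v : V)
include hG

theorem card_Pv : Fintype.card (Pv G v) = 22 := by
  rw [Fintype.card_subtype]
  have := card_nbr hG v
  rw [← this]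
  congr 1
  ext x
  simp

theorem bk_card' {w : V} (hw : w ∈ Wf G v) : (bk v w : Finset (Pv G v)).card = 6 := by
  rw [← bk_card hG v hw, ← Finset.card_map (Function.Embedding.subtype _)]
  congr 1
  ext x
  simp only [mem_map, mem_bk, Function.Embedding.subtype_apply, mem_filter, mem_univ, true_and]
  constructor
  · rintro ⟨a, ha, rfl⟩
    exact ⟨a.2, ha⟩
  · rintro ⟨h1, h2⟩
    exact ⟨⟨x, h1⟩, h2, rfl⟩

theorem inter_card {w w' : V} (hw : w ∈ Wf G v) (hw' : w' ∈ Wf G v) (hne : w ≠ w') (hn : ¬ G.Adj w w') :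
    (bk v w ∩ bk v w' : Finset (Pv G v)).card = 2 := by
  rw [← meet_two hG v hw hw' hne hn, ← Finset.card_map (Function.Embedding.subtype _)]
  congr 1
  ext x
  simp only [mem_map, mem_inter, mem_bk, Function.Embedding.subtype_apply, mem_filter, mem_univ, true_and]
  constructor
  · rintro ⟨a, ⟨h1, h2⟩, rfl⟩
    exact ⟨a.2, h1, h2⟩
  · rintro ⟨h0, h1, h2⟩
    exact ⟨⟨x, h0⟩, ⟨h1, h2⟩, rfl⟩

theorem inter_empty {w w' : V} (hadj : G.Adj w w') : (bk v w ∩ bk v w' : Finset (Pv G v)) = ∅ := by
  ext a
  simp only [mem_inter, mem_bk, notMem_empty, iff_false, not_and]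
  intro h1 h2
  exact no_triangle hG hadj h1 h2

theorem inter_le {w w' : V} (hw : w ∈ Wf G v) (hw' : w' ∈ Wf G v) (hne : w ≠ w') :
    (bk v w ∩ bk v w' : Finset (Pv G v)).card ≤ 2 := by
  by_cases h : G.Adj w w'
  · rw [inter_empty hG v h]
    simp
  · exact (inter_card hG v hw hw' hne h).le

theorem bk_inj {w w' : V} (hw : w ∈ Wf G v) (hw' : w' ∈ Wf G v) (h : (bk v w : Finset (Pv G v)) = bk v w') : w = w' := by
  by_contra hne
  have h1 := inter_le hG v hw hw' hne
  rw [← h, Finset.inter_self, bk_card' hG v hw] at h1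
  omega

theorem steiner_Bv : IsSteinerSystem 3 6 (Bv G v) := by
  refine ⟨?_, ?_⟩
  · rintro b ⟨w, hw, rfl⟩
    exact bk_card' hG v hw
  · intro s hs
    obtain ⟨a, b, c, hab, hac, hbc, rfl⟩ := Finset.card_eq_three.mp hs
    -- existence
    set Q := (Wf G v).filter fun w => G.Adj a.1 w ∧ G.Adj b.1 w with hQ
    have hQc : Q.card = 5 := nbr2_filter hG v a.2 b.2 (fun e => hab (Subtype.ext e))
    have hRc : ∀ w ∈ Q, (((bk v w : Finset (Pv G v)).erase a).erase b).card = 4 := by
      intro w hw
      obtain ⟨hw1, hw2, hw3⟩ := by simpa only [hQ, mem_filter] using hw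
      have ha : a ∈ (bk v w : Finset (Pv G v)) := mem_bk.mpr hw2.symm
      have hb : b ∈ (bk v w : Finset (Pv G v)) := mem_bk.mpr hw3.symm
      rw [card_erase_of_mem (mem_erase.mpr ⟨hab.symm, hb⟩), card_erase_of_mem ha, bk_card' hG v hw1]
    have hdisj : ∀ w ∈ Q, ∀ w' ∈ Q, w ≠ w' →
        Disjoint (((bk v w : Finset (Pv G v)).erase a).erase b) (((bk v w' : Finset (Pv G v)).erase a).erase b) := by
      intro w hw w' hw' hne
      obtain ⟨hw1, hw2, hw3⟩ := by simpa only [hQ, mem_filter] using hw
      obtain ⟨hw1', hw2', hw3'⟩ := by simpa only [hQ, mem_filter] using hw'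
      rw [Finset.disjoint_left]
      intro x hx hx'
      have hle := inter_le hG v hw1 hw1' hne
      simp only [mem_erase] at hx hx'
      have h3 : ({a, b, x} : Finset (Pv G v)) ⊆ bk v w ∩ bk v w' := by
        intro y hy
        simp only [mem_insert, mem_singleton] at hy
        rcases hy with rfl | rfl | rfl
        · exact mem_inter.mpr ⟨mem_bk.mpr hw2.symm, mem_bk.mpr hw2'.symm⟩
        · exact mem_inter.mpr ⟨mem_bk.mpr hw3.symm, mem_bk.mpr hw3'.symm⟩
        · exact mem_inter.mpr ⟨hx.2.2, hx'.2.2⟩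
      have h4 := Finset.card_le_card h3
      rw [Finset.card_eq_three.mpr ⟨a, b, x, hab, hx.2.1.symm, hx.1.symm, rfl⟩] at h4
      omega
    have hunion : Q.biUnion (fun w => ((bk v w : Finset (Pv G v)).erase a).erase b) = (univ.erase a).erase b := by
      apply Finset.eq_of_subset_of_card_le
      · intro x hx
        obtain ⟨w, hw, hx⟩ := mem_biUnion.mp hx
        simp only [mem_erase, mem_univ, and_true] at hx ⊢
        exact ⟨hx.1, hx.2.1⟩
      · rw [Finset.card_biUnion hdisj, Finset.sum_congr rfl hRc, Finset.sum_const, hQc,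
          card_erase_of_mem (mem_erase.mpr ⟨hab.symm, mem_univ _⟩), card_erase_of_mem (mem_univ _), card_univ,
          card_Pv hG v]
        simp
    have hcm : c ∈ (univ.erase a).erase b := by
      simp only [mem_erase, mem_univ, and_true]
      exact ⟨hbc.symm, hac.symm⟩
    rw [← hunion] at hcm
    obtain ⟨w, hw, hcw⟩ := mem_biUnion.mp hcm
    obtain ⟨hw1, hw2, hw3⟩ := by simpa only [hQ, mem_filter] using hw
    have hsub : ({a, b, c} : Finset (Pv G v)) ⊆ bk v w := by
      intro y hy
      simp only [mem_insert, mem_singleton] at hy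
      rcases hy with rfl | rfl | rfl
      · exact mem_bk.mpr hw2.symm
      · exact mem_bk.mpr hw3.symm
      · simp only [mem_erase] at hcw
        exact hcw.2.2
    refine ⟨bk v w, ⟨⟨w, hw1, rfl⟩, hsub⟩, ?_⟩
    rintro b' ⟨⟨w', hw', rfl⟩, hsub'⟩
    by_contra hne
    have hne' : w' ≠ w := fun e => hne (by rw [e])
    have hle := inter_le hG v hw' hw1 hne'
    have h3 : ({a, b, c} : Finset (Pv G v)) ⊆ bk v w' ∩ bk v w := Finset.subset_inter hsub' hsub
    have h4 := Finset.card_le_card h3
    rw [hs] at h4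
    omega

end

/-- The isomorphism of the graph with the point-block graph. -/
noncomputable def toPB (v x : V) : Option (Pv G v ⊕ Bv G v) :=
  if h0 : x = v then none else
    if h : G.Adj v x then some (Sum.inl ⟨x, h⟩) else some (Sum.inr ⟨bk v x, ⟨x, mem_Wf.mpr ⟨h0, h⟩, rfl⟩⟩)

variable (v : V)

theorem toPB_self : toPB (G := G) v v = none := by simp [toPB]

theorem toPB_nbr {a : V} (h : G.Adj v a) : toPB (G := G) v a = some (Sum.inl ⟨a, h⟩) := by
  simp [toPB, h.ne', h]

theorem toPB_non {w : V} (h : w ∈ Wf G v) : toPB (G := G) v w = some (Sum.inr ⟨bk v w, ⟨w, h, rfl⟩⟩) := by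
  have h1 := mem_Wf.mp h
  simp [toPB, h1.1, h1.2]

theorem toPB_cases (x : V) : x = v ∨ G.Adj v x ∨ x ∈ Wf G v := by
  by_cases h0 : x = v
  · exact Or.inl h0
  · by_cases h1 : G.Adj v x
    · exact Or.inr (Or.inl h1)
    · exact Or.inr (Or.inr (mem_Wf.mpr ⟨h0, h1⟩))

theorem toPB_bij (hG : G.IsSRGWith 100 22 0 6) : Function.Bijective (toPB (G := G) v) := by
  constructor
  · intro x y hxy
    rcases toPB_cases (G := G) v x with h0 | hx | hx <;> rcases toPB_cases (G := G) v y with h1 | hy | hy
    · rw [h0, h1]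
    · rw [h0, toPB_self, toPB_nbr _ hy] at hxy
      simp at hxy
    · rw [h0, toPB_self, toPB_non _ hy] at hxy
      simp at hxy
    · rw [h1, toPB_self, toPB_nbr _ hx] at hxy
      simp at hxy
    · rw [toPB_nbr _ hx, toPB_nbr _ hy] at hxy
      simpa using hxy
    · rw [toPB_nbr _ hx, toPB_non _ hy] at hxy
      simp at hxy
    · rw [h1, toPB_self, toPB_non _ hx] at hxy
      simp at hxy
    · rw [toPB_nbr _ hy, toPB_non _ hx] at hxy
      simp at hxy
    · rw [toPB_non _ hx, toPB_non _ hy] at hxy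
      have h2 := Sum.inr.inj (Option.some.inj hxy)
      exact bk_inj hG v hx hy (congrArg Subtype.val h2)
  · intro y
    match y with
    | none => exact ⟨v, toPB_self v⟩
    | some (Sum.inl a) => exact ⟨a.1, toPB_nbr v a.2⟩
    | some (Sum.inr b) =>
      obtain ⟨b, w, hw, rfl⟩ := b
      exact ⟨w, toPB_non v hw⟩

theorem pb_none_inl {α : Type*} (B : Set (Finset α)) (a : α) :
    (pointBlockGraph B).Adj none (some (Sum.inl a)) := by
  simp [pointBlockGraph, SimpleGraph.fromRel_adj, pointBlockRel]

theorem pb_none_inr {α : Type*} (B : Set (Finset α)) (b : ↥B) :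
    ¬ (pointBlockGraph B).Adj none (some (Sum.inr b)) := by
  simp [pointBlockGraph, SimpleGraph.fromRel_adj, pointBlockRel]

theorem pb_inl_inl {α : Type*} (B : Set (Finset α)) (a a' : α) :
    ¬ (pointBlockGraph B).Adj (some (Sum.inl a)) (some (Sum.inl a')) := by
  simp [pointBlockGraph, SimpleGraph.fromRel_adj, pointBlockRel]

theorem pb_inl_inr {α : Type*} (B : Set (Finset α)) (a : α) (b : ↥B) :
    (pointBlockGraph B).Adj (some (Sum.inl a)) (some (Sum.inr b)) ↔ a ∈ (b : Finset α) := by
  simp [pointBlockGraph, SimpleGraph.fromRel_adj, pointBlockRel]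

theorem pb_inr_inr {α : Type*} (B : Set (Finset α)) (b c : ↥B) :
    (pointBlockGraph B).Adj (some (Sum.inr b)) (some (Sum.inr c)) ↔ b ≠ c ∧ Disjoint (b : Finset α) (c : Finset α) := by
  simp only [pointBlockGraph, SimpleGraph.fromRel_adj, pointBlockRel]
  constructor
  · rintro ⟨h1, h2⟩
    have h3 : b ≠ c := fun e => h1 (by rw [e])
    refine ⟨h3, ?_⟩
    rcases h2 with h2 | h2
    · exact h2
    · exact h2.symm
  · rintro ⟨h1, h2⟩
    exact ⟨fun e => h1 (by simpa using e), Or.inl h2⟩

/-- The isomorphism with the point-block graph, sending the vertex to the extra vertex. -/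
noncomputable def isoPB (hG : G.IsSRGWith 100 22 0 6) : G ≃g pointBlockGraph (Bv G v) where
  toEquiv := Equiv.ofBijective (toPB (G := G) v) (toPB_bij v hG)
  map_rel_iff' := by
    intro x y
    show (pointBlockGraph (Bv G v)).Adj (toPB v x) (toPB v y) ↔ G.Adj x y
    have hsym : ∀ {p q : Option (Pv G v ⊕ Bv G v)},
        (pointBlockGraph (Bv G v)).Adj p q ↔ (pointBlockGraph (Bv G v)).Adj q p := fun {p q} =>
      ⟨fun h => h.symm, fun h => h.symm⟩
    rcases toPB_cases (G := G) v x with h0 | hx | hx <;> rcases toPB_cases (G := G) v y with h1 | hy | hy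
    · rw [h0, h1, toPB_self]
      simp
    · rw [h0, toPB_self, toPB_nbr _ hy]
      exact iff_of_true (pb_none_inl _ _) hy
    · rw [h0, toPB_self, toPB_non _ hy]
      exact iff_of_false (pb_none_inr _ _) (mem_Wf.mp hy).2
    · rw [h1, toPB_self, toPB_nbr _ hx]
      exact iff_of_true (pb_none_inl _ _).symm hx.symm
    · rw [toPB_nbr _ hx, toPB_nbr _ hy]
      exact iff_of_false (pb_inl_inl _ _ _) (no_triangle hG hx hy)
    · rw [toPB_nbr _ hx, toPB_non _ hy, pb_inl_inr]
      exact ⟨fun h => (mem_bk.mp h).symm, fun h => mem_bk.mpr h.symm⟩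
    · rw [h1, toPB_self, toPB_non _ hx, hsym]
      exact iff_of_false (pb_none_inr _ _) (fun h => (mem_Wf.mp hx).2 h.symm)
    · rw [toPB_nbr _ hy, toPB_non _ hx, hsym, pb_inl_inr]
      exact ⟨fun h => mem_bk.mp h, fun h => mem_bk.mpr h⟩
    · rw [toPB_non _ hx, toPB_non _ hy, pb_inr_inr]
      constructor
      · rintro ⟨h1, h2⟩
        have hne : x ≠ y := by
          rintro rfl
          exact h1 rfl
        by_contra hn
        have h3 := inter_card hG v hx hy hne hn
        rw [Finset.disjoint_iff_inter_eq_empty.mp h2] at h3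
        simp at h3
      · intro h
        refine ⟨?_, Finset.disjoint_iff_inter_eq_empty.mpr (inter_empty hG v h)⟩
        intro e
        exact h.ne (bk_inj hG v hx hy (congrArg Subtype.val e))

theorem isoPB_self (hG : G.IsSRGWith 100 22 0 6) : isoPB v hG v = none := toPB_self v

/-- Transport of the point-block graph along an isomorphism of set systems. -/
noncomputable def blkEquiv {α β : Type*} [DecidableEq α] [DecidableEq β] {B : Set (Finset α)} {B' : Set (Finset β)} (f : α ≃ β)
    (hf : ∀ b : Finset α, b ∈ B ↔ b.image f ∈ B') : ↥B ≃ ↥B' where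
  toFun := fun b => ⟨b.1.image f, (hf b.1).mp b.2⟩
  invFun := fun c => ⟨c.1.image f.symm, by
    rw [hf]
    have e : (c.1.image f.symm).image f = c.1 := by
      ext x
      simp
    rw [e]
    exact c.2⟩
  left_inv := fun b => by
    apply Subtype.ext
    ext x
    simp
  right_inv := fun c => by
    apply Subtype.ext
    ext x
    simp

noncomputable def pbOfFun {α β : Type*} [DecidableEq α] [DecidableEq β] {B : Set (Finset α)} {B' : Set (Finset β)} (f : α ≃ β)
    (hf : ∀ b : Finset α, b ∈ B ↔ b.image f ∈ B') : pointBlockGraph B ≃g pointBlockGraph B' where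
  toEquiv := Equiv.optionCongr (Equiv.sumCongr f (blkEquiv f hf))
  map_rel_iff' := by
    rintro (_ | (a | b)) (_ | (a' | b'))
    · simp
    · exact iff_of_true (pb_none_inl _ _) (pb_none_inl _ _)
    · exact iff_of_false (pb_none_inr _ _) (pb_none_inr _ _)
    · exact iff_of_true (pb_none_inl _ _).symm (pb_none_inl _ _).symm
    · exact iff_of_false (pb_inl_inl _ _ _) (pb_inl_inl _ _ _)
    · change (pointBlockGraph B').Adj (some (Sum.inl (f a))) (some (Sum.inr (blkEquiv f hf b'))) ↔ _
      rw [pb_inl_inr, pb_inl_inr]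
      simp [blkEquiv]
    · exact iff_of_false (fun h => pb_none_inr _ _ h.symm) (fun h => pb_none_inr _ _ h.symm)
    · change (pointBlockGraph B').Adj (some (Sum.inr (blkEquiv f hf b))) (some (Sum.inl (f a'))) ↔ _
      rw [SimpleGraph.adj_comm, SimpleGraph.adj_comm (pointBlockGraph B), pb_inl_inr, pb_inl_inr]
      simp [blkEquiv]
    · change (pointBlockGraph B').Adj (some (Sum.inr (blkEquiv f hf b))) (some (Sum.inr (blkEquiv f hf b'))) ↔ _
      rw [pb_inr_inr, pb_inr_inr]
      apply and_congr
      · exact not_congr (blkEquiv f hf).injective.eq_iff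
      · show Disjoint (b.1.image f) (b'.1.image f) ↔ _
        rw [Finset.disjoint_image f.injective]

theorem pbOfFun_none {α β : Type*} [DecidableEq α] [DecidableEq β] {B : Set (Finset α)} {B' : Set (Finset β)} (f : α ≃ β)
    (hf : ∀ b : Finset α, b ∈ B ↔ b.image f ∈ B') : pbOfFun f hf none = none := rfl

theorem hf_of_iso {α β : Type*} [DecidableEq α] [DecidableEq β] {B : Set (Finset α)} {B' : Set (Finset β)} {f : α ≃ β}
    (h : (fun b => b.image f) '' B = B') (b : Finset α) : b ∈ B ↔ b.image f ∈ B' := by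
  constructor
  · intro hb
    rw [← h]
    exact ⟨b, hb, rfl⟩
  · intro hb
    rw [← h] at hb
    obtain ⟨c, hc, he⟩ := hb
    have : c = b := Finset.image_injective f.injective he
    rwa [← this]

end CfsgLib.HSG
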