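/-
Uniqueness of the strongly regular graph with parameters (100, 22, 0, 6).
-/
import Cfsg.Agent.Lib.HSG.Iso
import Cfsg.Agent.Lib.StCert.W24
import Cfsg.Agent.Lib.StCert.Transport

set_option autoImplicit false
set_option linter.unusedVariables false
set_option linter.unusedSectionVars false

namespace CfsgLib.HSG

open Cfsg

universe u v

theorem steiner_iso {α β : Type*} [Fintype α] [Fintype β] [DecidableEq α] [DecidableEq β]
    (hα : Fintype.card α = 22) (hβ : Fintype.card β = 22)
    {B : Set (Finset α)} {B' : Set (Finset β)} (hB : IsSteinerSystem 3 6 B) (hB' : IsSteinerSystem 3 6 B') :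
    ∃ e : pointBlockGraph B ≃g pointBlockGraph B', e none = none := by
  obtain ⟨f, hf⟩ := StCert.iso_of_T (n := 22) (by norm_num) StCert.W24.T22 hα hβ hB hB'
  exact ⟨pbOfFun f (hf_of_iso hf), pbOfFun_none f (hf_of_iso hf)⟩

theorem result_0430 {V : Type u} {W : Type v} [Fintype V] [Fintype W] {G : SimpleGraph V} {H : SimpleGraph W}
    [DecidableRel G.Adj] [DecidableRel H.Adj] (hG : G.IsSRGWith 100 22 0 6) (hH : H.IsSRGWith 100 22 0 6) :
    Nonempty (G ≃g H) := by
  classical
  have hV : Nonempty V := Fintype.card_pos_iff.mp (by rw [hG.card]; norm_num)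
  have hW : Nonempty W := Fintype.card_pos_iff.mp (by rw [hH.card]; norm_num)
  obtain ⟨v⟩ := hV
  obtain ⟨w⟩ := hW
  obtain ⟨e, -⟩ := steiner_iso (card_Pv hG v) (card_Pv hH w) (steiner_Bv hG v) (steiner_Bv hH w)
  exact ⟨(isoPB v hG).trans (e.trans (isoPB w hH).symm)⟩

end CfsgLib.HSG
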