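/-
The automorphism group of the point-block graph of the Steiner system on twenty-two points.
-/
import Cfsg.Agent.Lib.HSG.Uniq
import Cfsg.Agent.S0428
import Cfsg.Agent.Lib.StCert.AutUse

set_option autoImplicit false
set_option linter.unusedVariables false
set_option linter.unusedSectionVars false

namespace CfsgLib.HSG

open Cfsg
open scoped Pointwise

section General

variable {V : Type*} (G : SimpleGraph V)

/-- The map from graph automorphisms to permutations of the vertices. -/
def autPerm : (G ≃g G) →* Equiv.Perm V where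
  toFun e := e.toEquiv
  map_one' := rfl
  map_mul' _ _ := rfl

theorem autPerm_inj : Function.Injective (autPerm G) := by
  intro a b h
  apply RelIso.ext
  intro x
  exact DFunLike.congr_fun h x

theorem aut_smul (e : G ≃g G) (x : V) : e • x = e x := rfl

theorem aut_mul_apply (e f : G ≃g G) (x : V) : (e * f) x = e (f x) := rfl

theorem aut_inv_apply_self (e : G ≃g G) (x : V) : e⁻¹ (e x) = x := e.symm_apply_apply x

theorem aut_apply_inv_self (e : G ≃g G) (x : V) : e (e⁻¹ x) = x := e.apply_symm_apply x

end General

section Main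

variable {α : Type*} {B : Set (Finset α)}

theorem eq_inl_of_adj {x : Option (α ⊕ ↥B)} (h : (pointBlockGraph B).Adj none x) : ∃ a, x = some (Sum.inl a) := by
  rcases x with _ | a | b
  · exact absurd h (SimpleGraph.irrefl _)
  · exact ⟨a, rfl⟩
  · exact absurd h (pb_none_inr _ _)

theorem eq_inr_of_nadj {x : Option (α ⊕ ↥B)} (h0 : x ≠ none) (h : ¬ (pointBlockGraph B).Adj none x) :
    ∃ b, x = some (Sum.inr b) := by
  rcases x with _ | a | b
  · exact absurd rfl h0
  · exact absurd (pb_none_inl _ _) h
  · exact ⟨b, rfl⟩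

theorem aut_inl (e : pointBlockGraph B ≃g pointBlockGraph B) (he : e none = none) (a : α) :
    ∃ a', e (some (Sum.inl a)) = some (Sum.inl a') := by
  apply eq_inl_of_adj
  rw [← he]
  exact e.map_rel_iff.mpr (pb_none_inl _ _)

theorem aut_inr (e : pointBlockGraph B ≃g pointBlockGraph B) (he : e none = none) (b : ↥B) :
    ∃ c, e (some (Sum.inr b)) = some (Sum.inr c) := by
  apply eq_inr_of_nadj
  · intro h
    rw [← he] at h
    simpa using e.injective h
  · rw [← he]
    intro h
    exact pb_none_inr _ _ (e.map_rel_iff.mp h)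

variable [Fintype α] [DecidableEq α]

theorem image_aut (g : setSystemAut B) (b : Finset α) : b ∈ B ↔ b.image (g : Equiv.Perm α) ∈ B := by
  obtain ⟨g, hg⟩ := g
  have h : g • B = B := hg
  have h2 : b.image g = g • b := rfl
  show b ∈ B ↔ b.image g ∈ B
  rw [h2]
  constructor
  · intro hb
    rw [← h]
    exact Set.smul_mem_smul_set hb
  · intro hb
    rw [← h] at hb
    exact (Set.smul_mem_smul_set_iff).mp hb

/-- The automorphisms of the system act on the graph. -/
noncomputable def extAut : setSystemAut B →* (pointBlockGraph B ≃g pointBlockGraph B) where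
  toFun g := pbOfFun (g : Equiv.Perm α) (image_aut g)
  map_one' := by
    apply RelIso.ext
    rintro (_ | a | b)
    · rfl
    · rfl
    · change some (Sum.inr _) = some (Sum.inr b)
      congr 2
      apply Subtype.ext
      ext x
      simp [blkEquiv]
  map_mul' g h := by
    apply RelIso.ext
    rintro (_ | a | b)
    · rfl
    · rfl
    · change some (Sum.inr _) = some (Sum.inr _)
      congr 2
      apply Subtype.ext
      ext x
      simp [blkEquiv]

theorem extAut_none (g : setSystemAut B) : extAut g none = none := rfl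

theorem extAut_inl (g : setSystemAut B) (a : α) :
    extAut g (some (Sum.inl a)) = some (Sum.inl ((g : Equiv.Perm α) a)) := rfl

theorem extAut_inr (g : setSystemAut B) (b : ↥B) :
    extAut g (some (Sum.inr b)) = some (Sum.inr ⟨b.1.image (g : Equiv.Perm α), (image_aut g b.1).mp b.2⟩) := rfl

theorem extAut_inj : Function.Injective (extAut (B := B)) := by
  intro g h hgh
  apply Subtype.ext
  ext a
  have := congrArg (fun e => e (some (Sum.inl a))) hgh
  simpa [extAut_inl] using this

theorem extAut_surj (hB : IsSteinerSystem 3 6 B) (e : pointBlockGraph B ≃g pointBlockGraph B) (he : e none = none) :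
    ∃ g, extAut g = e := by
  classical
  choose f hf using aut_inl e he
  choose k hk using aut_inr e he
  have hfinj : Function.Injective f := by
    intro a a' h
    have : e (some (Sum.inl a)) = e (some (Sum.inl a')) := by rw [hf, hf, h]
    simpa using e.injective this
  have hkinj : Function.Injective k := by
    intro a a' h
    have : e (some (Sum.inr a)) = e (some (Sum.inr a')) := by rw [hk, hk, h]
    simpa using e.injective this
  let F : Equiv.Perm α := Equiv.ofBijective f (Finite.injective_iff_bijective.mp hfinj)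
  have hF : ∀ a, F a = f a := fun a => rfl
  have hmem : ∀ (a : α) (b : ↥B), a ∈ b.1 ↔ f a ∈ (k b).1 := by
    intro a b
    rw [← pb_inl_inr, ← pb_inl_inr, ← hf, ← hk]
    exact e.map_rel_iff.symm
  have himg : ∀ b : ↥B, b.1.image F = (k b).1 := by
    intro b
    apply Finset.eq_of_subset_of_card_le
    · intro y hy
      obtain ⟨a, ha, rfl⟩ := Finset.mem_image.mp hy
      exact (hmem a b).mp ha
    · rw [Finset.card_image_of_injective _ F.injective, hB.1 _ (k b).2, hB.1 _ b.2]
  have haut : F • B = B := by
    apply Set.Subset.antisymm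
    · rintro _ ⟨b, hb, rfl⟩
      show b.image F ∈ B
      rw [himg ⟨b, hb⟩]
      exact (k ⟨b, hb⟩).2
    · intro c hc
      haveI : Finite ↥B := Set.toFinite _
      obtain ⟨b, hb⟩ := (Finite.injective_iff_surjective.mp hkinj) ⟨c, hc⟩
      refine ⟨b.1, b.2, ?_⟩
      show b.1.image F = c
      rw [himg, hb]
  refine ⟨⟨F, haut⟩, ?_⟩
  apply RelIso.ext
  rintro (_ | a | b)
  · exact he.symm
  · rw [hf]
    rfl
  · rw [hk, extAut_inr]
    congr 2
    exact Subtype.ext (himg b)

theorem srg_pb [Fintype ↥B] [DecidableRel (pointBlockGraph B).Adj] (hα : Fintype.card α = 22) (hB : IsSteinerSystem 3 6 B) :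
    (pointBlockGraph B).IsSRGWith 100 22 0 6 := Cfsg.Agent.S0428.result hα hB

theorem aut_to_none (hα : Fintype.card α = 22) (hB : IsSteinerSystem 3 6 B) (x : Option (α ⊕ ↥B)) :
    ∃ e : pointBlockGraph B ≃g pointBlockGraph B, e x = none := by
  classical
  haveI : Fintype ↥B := Fintype.ofFinite _
  have h := srg_pb (B := B) hα hB
  obtain ⟨ψ, hψ⟩ := steiner_iso (card_Pv h x) hα (steiner_Bv h x) hB
  refine ⟨(isoPB x h).trans ψ, ?_⟩
  show ψ (isoPB x h x) = none
  rw [isoPB_self, hψ]

theorem aut_pretrans (hα : Fintype.card α = 22) (hB : IsSteinerSystem 3 6 B) (x y : Option (α ⊕ ↥B)) :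
    ∃ e : pointBlockGraph B ≃g pointBlockGraph B, e x = y := by
  obtain ⟨a, ha⟩ := aut_to_none hα hB x
  obtain ⟨b, hb⟩ := aut_to_none hα hB y
  refine ⟨b⁻¹ * a, ?_⟩
  rw [aut_mul_apply, ha, ← hb]
  exact aut_inv_apply_self _ _ _

theorem card_vertices (hα : Fintype.card α = 22) (hB : IsSteinerSystem 3 6 B) :
    Nat.card (Option (α ⊕ ↥B)) = 100 := by
  classical
  haveI : Fintype ↥B := Fintype.ofFinite _
  rw [Nat.card_eq_fintype_card]
  exact (srg_pb (B := B) hα hB).card

theorem index_stab (hα : Fintype.card α = 22) (hB : IsSteinerSystem 3 6 B) (x : Option (α ⊕ ↥B)) :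
    (MulAction.stabilizer (pointBlockGraph B ≃g pointBlockGraph B) x).index = 100 := by
  rw [MulAction.index_stabilizer]
  have : MulAction.orbit (pointBlockGraph B ≃g pointBlockGraph B) x = Set.univ := by
    apply Set.eq_univ_of_forall
    intro y
    obtain ⟨e, he⟩ := aut_pretrans hα hB x y
    exact ⟨e, he⟩
  rw [this, Set.ncard_univ, card_vertices hα hB]

theorem card_stab_none (hB : IsSteinerSystem 3 6 B) :
    Nat.card (MulAction.stabilizer (pointBlockGraph B ≃g pointBlockGraph B) (none : Option (α ⊕ ↥B))) =
      Nat.card (setSystemAut B) := by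
  symm
  apply Nat.card_congr
  refine Equiv.ofBijective (fun g => ⟨extAut g, extAut_none g⟩) ⟨?_, ?_⟩
  · intro g h hgh
    exact extAut_inj (congrArg Subtype.val hgh)
  · rintro ⟨e, he⟩
    obtain ⟨g, hg⟩ := extAut_surj hB e he
    exact ⟨g, Subtype.ext hg⟩

theorem card_aut (hα : Fintype.card α = 22) (hB : IsSteinerSystem 3 6 B) :
    Nat.card (pointBlockGraph B ≃g pointBlockGraph B) = 88704000 := by
  rw [← Subgroup.card_mul_index (MulAction.stabilizer (pointBlockGraph B ≃g pointBlockGraph B) (none : Option (α ⊕ ↥B))),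
    card_stab_none hB, index_stab hα hB, (StCert.W24.aut22_result hα hB).1]

end Main

end CfsgLib.HSG
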