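/-
An automorphism of the point-block graph which is an odd permutation of the vertices.
-/
import Cfsg.Agent.Lib.HSG.AutCard
import Cfsg.Agent.Lib.Golay.ClassUse

set_option autoImplicit false
set_option linter.unusedVariables false
set_option linter.unusedSectionVars false
set_option maxRecDepth 100000

namespace CfsgLib.HSG

open Cfsg CfsgLib.Golay CfsgLib.StCert CfsgLib.StCert.W24
open scoped Pointwise

theorem tau_valid : valid tau = true := by
  have h := tau_chk
  simp only [leafOK, Bool.and_eq_true] at h
  exact (permOK_fix h.1.1).1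

theorem tau_sq : mk tau ^ 2 = 1 := mk_pow2_of tau_valid (by decide +kernel)

theorem card_fix_tau_list : ((Finset.range 24).filter fun t => pa tau t = t).card = 10 := by decide +kernel

theorem card_fix_tau (F : Fintype (Function.fixedPoints (mk tau))) : Fintype.card (Function.fixedPoints (mk tau)) = 10 := by
  rw [← card_fix_tau_list]
  have himg : ((Finset.range 24).filter fun t => pa tau t = t).image pt =
      Finset.univ.filter fun p : GolayPt => mk tau p = p := by
    ext p
    simp only [Finset.mem_image, Finset.mem_filter, Finset.mem_range, Finset.mem_univ, true_and]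
    constructor
    · rintro ⟨t, ⟨ht, h1⟩, rfl⟩
      rw [mk_pt tau_valid ht, h1]
    · intro h
      refine ⟨idx p, ⟨idx_lt p, ?_⟩, pt_idx p⟩
      rw [← idx_mk tau_valid, h]
  have hc : (((Finset.range 24).filter fun t => pa tau t = t).image pt).card =
      ((Finset.range 24).filter fun t => pa tau t = t).card := by
    apply Finset.card_image_of_injOn
    intro a ha b hb hab
    have ha' := (Finset.mem_filter.mp (Finset.mem_coe.mp ha)).1
    have hb' := (Finset.mem_filter.mp (Finset.mem_coe.mp hb)).1
    have := congrArg idx hab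
    rwa [idx_pt (Finset.mem_range.mp ha'), idx_pt (Finset.mem_range.mp hb')] at this
  rw [← hc, himg]
  exact Fintype.card_of_subtype _ (fun x => by simp [Function.mem_fixedPoints, Function.IsFixedPt])

theorem sign_tau : Equiv.Perm.sign (mk tau) = -1 := by
  classical
  rw [Equiv.Perm.sign_of_pow_two_eq_one tau_sq, card_fix_tau]
  have hc : Fintype.card GolayPt = 24 := by
    simp [GolayPt]
  rw [hc]
  decide

theorem lt_of_mem_D22 {m : ℕ} (hm : m ∈ D22) : m < 2 ^ 24 := by
  have hblt : ∀ a b : ℕ, Nat.blt a b = true → a < b := fun a b h => by simpa [Nat.blt] using h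
  exact lt_of_lt_of_le (hblt _ _ (List.all_eq_true.mp lt_D22 m hm)) (Nat.pow_le_pow_right (by norm_num) (by norm_num))

theorem card_D22 : D22.toFinset.card = 77 := by decide +kernel

theorem card_fix_D22 : (D22.toFinset.filter fun m => img tau m = m).card = 21 := by decide +kernel

section
variable {α : Type*} [Fintype α] [DecidableEq α] {B : Set (Finset α)}

/-- Counting blocks through the list. -/
theorem card_filter_theta [Fintype ↥B] (f : α ≃ ↥(Pn 22))
    (hf : ∀ b : Finset α, b ∈ B ↔ b.map (embP f) ∈ setOf D22)
    (Q : Finset GolayPt → Prop) [DecidablePred Q] :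
    (Finset.univ.filter fun b : ↥B => Q (b.1.map (embP f))).card = (D22.toFinset.filter fun m => Q (fs m)).card := by
  have hX : ∀ x ∈ setOf D22, x ⊆ Pn 22 := fun x hx => (St_D22.blocks x hx).2
  have h1 : (Finset.univ.filter fun b : ↥B => Q (b.1.map (embP f))).card =
      ((Finset.univ.filter fun b : ↥B => Q (b.1.map (embP f))).image fun b => b.1.map (embP f)).card := by
    symm
    apply Finset.card_image_of_injective
    intro a b hab
    exact Subtype.ext (Finset.map_injective _ hab)
  have h2 : (D22.toFinset.filter fun m => Q (fs m)).card =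
      ((D22.toFinset.filter fun m => Q (fs m)).image fs).card := by
    symm
    apply Finset.card_image_of_injOn
    intro a ha b hb hab
    have ha' := List.mem_toFinset.mp (Finset.mem_filter.mp (Finset.mem_coe.mp ha)).1
    have hb' := List.mem_toFinset.mp (Finset.mem_filter.mp (Finset.mem_coe.mp hb)).1
    exact eq_of_fs_eq (lt_of_mem_D22 ha') (lt_of_mem_D22 hb') hab
  rw [h1, h2]
  congr 1
  ext x
  simp only [Finset.mem_image, Finset.mem_filter, Finset.mem_univ, true_and, List.mem_toFinset]
  constructor
  · rintro ⟨b, hq, rfl⟩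
    obtain ⟨m, hm, he⟩ := (hf b.1).mp b.2
    refine ⟨m, ⟨hm, ?_⟩, he.symm⟩
    rwa [← he]
  · rintro ⟨m, ⟨hm, hq⟩, rfl⟩
    obtain ⟨b, hb⟩ := exists_map_eq f (hX (fs m) ⟨m, hm, rfl⟩)
    have hbB : b ∈ B := (hf b).mpr (by rw [hb]; exact ⟨m, hm, rfl⟩)
    refine ⟨⟨b, hbB⟩, ?_, hb⟩
    show Q (b.map (embP f))
    rwa [hb]

theorem card_blocks [Fintype ↥B] (f : α ≃ ↥(Pn 22))
    (hf : ∀ b : Finset α, b ∈ B ↔ b.map (embP f) ∈ setOf D22) : Fintype.card ↥B = 77 := by
  have := card_filter_theta f hf (fun _ => True)
  simp only [Finset.filter_true] at this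
  rw [Finset.card_univ, card_D22] at this
  exact this

theorem exists_odd_aut [Fintype ↥B] (hα : Fintype.card α = 22) (hB : IsSteinerSystem 3 6 B) :
    ∃ g : setSystemAut B, Equiv.Perm.sign (autPerm (pointBlockGraph B) (extAut g)) = -1 := by
  obtain ⟨f, hf⟩ := std_of_T (n := 22) (by norm_num) T22 hα hB
  have hX : ∀ x ∈ setOf D22, x ⊆ Pn 22 := fun x hx => (St_D22.blocks x hx).2
  have hmap := map_extH f hf hX
  have h0 := tau_mem
  rw [← hmap] at h0
  obtain ⟨a0, ha0, hae⟩ := Subgroup.mem_map.mp h0
  refine ⟨⟨a0, ha0⟩, ?_⟩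
  have hsq : a0 ^ 2 = 1 := by
    apply extH_inj f
    rw [map_pow, hae, tau_sq, map_one]
  have hsign0 : Equiv.Perm.sign a0 = -1 := by
    rw [← sign_tau, ← hae]
    exact (Equiv.Perm.sign_extendDomain a0 f).symm
  let hfa := image_aut (B := B) ⟨a0, ha0⟩
  let k : Equiv.Perm ↥B := blkEquiv a0 hfa
  have hk : ∀ b : ↥B, (k b).1 = b.1.image a0 := fun b => rfl
  have hksq : k ^ 2 = 1 := by
    apply Equiv.ext
    intro b
    apply Subtype.ext
    rw [pow_two, Equiv.Perm.mul_apply, hk, hk, Finset.image_image]
    have h2 : (a0 : α → α) ∘ a0 = id := by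
      funext x
      have := DFunLike.congr_fun hsq x
      simpa [pow_two] using this
    rw [h2, Finset.image_id]
    rfl
  have hθ : ∀ b : ↥B, (k b).1.map (embP f) = mk tau • b.1.map (embP f) := by
    intro b
    rw [← hae, extH_smul_map]
    rfl
  have hfixcard : Fintype.card (Function.fixedPoints k) = 21 := by
    rw [← card_fix_D22]
    have h1 := card_filter_theta f hf (fun x => mk tau • x = x)
    have h2 : (D22.toFinset.filter fun m => img tau m = m) = (D22.toFinset.filter fun m => mk tau • fs m = fs m) := by
      apply Finset.filter_congr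
      intro m hm
      rw [← fs_img tau_valid]
      constructor
      · intro h
        rw [h]
      · intro h
        exact eq_of_fs_eq (img_lt tau_valid m) (lt_of_mem_D22 (List.mem_toFinset.mp hm)) h
    rw [h2, ← h1]
    apply Fintype.card_of_subtype
    intro b
    simp only [Finset.mem_filter, Finset.mem_univ, true_and, Function.mem_fixedPoints, Function.IsFixedPt]
    rw [← hθ]
    constructor
    · intro h
      exact Subtype.ext (Finset.map_injective _ h)
    · intro h
      show (k b).1.map (embP f) = b.1.map (embP f)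
      rw [h]
  have hsign1 : Equiv.Perm.sign k = 1 := by
    rw [Equiv.Perm.sign_of_pow_two_eq_one hksq, hfixcard, card_blocks f hf]
    decide
  have hdec : autPerm (pointBlockGraph B) (extAut ⟨a0, ha0⟩) = Equiv.optionCongr (Equiv.Perm.sumCongr a0 k) := rfl
  rw [hdec, Equiv.optionCongr_sign, Equiv.Perm.sign_sumCongr, hsign0, hsign1]
  rfl

end

end CfsgLib.HSG
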