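/-
A simplicity criterion for a transitive group on one hundred points.
-/
import Mathlib

set_option autoImplicit false
set_option linter.unusedVariables false
set_option linter.unusedSectionVars false

namespace CfsgLib.HSG

theorem fact100 : (100 : ℕ).factorization 5 = 2 := by
  have h : (100 : ℕ) = 5 ^ 2 * 4 := by norm_num
  rw [h, Nat.factorization_mul (by norm_num) (by norm_num), Nat.factorization_pow]
  have h5 : (5 : ℕ).factorization 5 = 1 := Nat.Prime.factorization_self (by norm_num)
  have h4 : (4 : ℕ).factorization 5 = 0 := Nat.factorization_eq_zero_of_not_dvd (by norm_num)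
  simp [h5, h4]

theorem sylow25 {N : Type*} [Group N] [Finite N] (hN : Nat.card N = 100) :
    ∃ P : Subgroup N, P.Characteristic ∧ Nat.card P = 25 := by
  haveI : Fact (Nat.Prime 5) := ⟨by norm_num⟩
  obtain ⟨P⟩ : Nonempty (Sylow 5 N) := inferInstance
  have hcard : Nat.card (P : Subgroup N) = 25 := by
    rw [Sylow.card_eq_multiplicity, hN, fact100]
    norm_num
  have hidx : (P : Subgroup N).index = 4 := by
    have := Subgroup.card_mul_index (P : Subgroup N)
    rw [hcard, hN] at this
    omega
  have h1 := card_sylow_modEq_one 5 N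
  have h2 := P.card_dvd_index
  rw [hidx] at h2
  have h3 : Nat.card (Sylow 5 N) ≤ 4 := Nat.le_of_dvd (by norm_num) h2
  have h4 : Nat.card (Sylow 5 N) = 1 := by
    have h5 : Nat.card (Sylow 5 N) % 5 = 1 := h1
    omega
  haveI : Subsingleton (Sylow 5 N) := (Nat.card_eq_one_iff_unique.mp h4).1
  exact ⟨P, P.characteristic_of_normal (P.normal_of_subsingleton), hcard⟩

theorem simple_crit {H V : Type*} [Group H] [Fintype V] [MulAction H V]
    (hV : Fintype.card V = 100)
    (htr : MulAction.IsPretransitive H V)
    (hfaith : ∀ h : H, (∀ x : V, h • x = x) → h = 1)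
    (v0 : V)
    (hS : IsSimpleGroup (MulAction.stabilizer H v0))
    (hinv : ∀ X : Finset V, v0 ∈ X → (∀ s ∈ MulAction.stabilizer H v0, ∀ x ∈ X, s • x ∈ X) →
      X.card = 1 ∨ X.card = 23 ∨ X.card = 78 ∨ X.card = 100) :
    IsSimpleGroup H := by
  classical
  haveI : Finite H := Finite.of_injective (MulAction.toPermHom H V) (by
    intro a b hab
    have h1 : a⁻¹ * b = 1 := hfaith _ (fun x => by
      have := DFunLike.congr_fun hab x
      simp only [MulAction.toPermHom_apply, MulAction.toPerm_apply] at this
      rw [mul_smul, ← this, inv_smul_smul])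
    exact (inv_mul_eq_one.mp h1))
  haveI : Nontrivial H := by
    obtain ⟨⟨a, ha⟩, ⟨b, hb⟩, hne⟩ := hS.toNontrivial.exists_pair_ne
    exact ⟨⟨a, b, fun e => hne (Subtype.ext e)⟩⟩
  refine ⟨fun N hNn => ?_⟩
  -- the orbit of the base point
  let Ω : Set V := MulAction.orbit N v0
  have hblock : MulAction.IsBlock H Ω := MulAction.IsBlock.orbit_of_normal v0
  have hv0 : v0 ∈ Ω := MulAction.mem_orbit_self v0
  have hdvd : Ω.ncard ∣ 100 := by
    have := hblock.ncard_dvd_card ⟨v0, hv0⟩
    rwa [Nat.card_eq_fintype_card, hV] at this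
  let X : Finset V := Finset.univ.filter (· ∈ Ω)
  have hXmem : ∀ x, x ∈ X ↔ x ∈ Ω := fun x => by simp [X]
  have hXcard : X.card = Ω.ncard := by
    rw [← Set.ncard_coe_finset]
    congr 1
    ext x
    simp [X]
  have hXinv : ∀ s ∈ MulAction.stabilizer H v0, ∀ x ∈ X, s • x ∈ X := by
    intro s hs x hx
    rw [hXmem] at hx ⊢
    obtain ⟨n, rfl⟩ := hx
    have hmem : s * (n : H) * s⁻¹ ∈ N := hNn.conj_mem _ n.2 s
    refine ⟨⟨_, hmem⟩, ?_⟩
    have hs' : s⁻¹ • v0 = v0 := by
      rw [inv_smul_eq_iff]
      exact (MulAction.mem_stabilizer_iff.mp hs).symm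
    show (s * (n : H) * s⁻¹) • v0 = s • (n : H) • v0
    rw [mul_smul, mul_smul, hs']
  have hcases := hinv X (by simpa [X] using hv0) hXinv
  rw [hXcard] at hcases
  have h1or100 : Ω.ncard = 1 ∨ Ω.ncard = 100 := by
    rcases hcases with h | h | h | h
    · exact Or.inl h
    · rw [h] at hdvd
      norm_num at hdvd
    · rw [h] at hdvd
      norm_num at hdvd
    · exact Or.inr h
  rcases h1or100 with h1 | h100
  · -- the subgroup fixes the base point, hence everything
    left
    have hfix : ∀ n ∈ N, n • v0 = v0 := by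
      intro n hn
      obtain ⟨a, ha⟩ := Set.ncard_eq_one.mp h1
      have e1 : v0 = a := by
        have : v0 ∈ ({a} : Set V) := ha ▸ hv0
        simpa using this
      have e2 : n • v0 ∈ Ω := ⟨⟨n, hn⟩, rfl⟩
      rw [ha] at e2
      have e3 : n • v0 = a := by simpa using e2
      rw [e3, e1]
    rw [Subgroup.eq_bot_iff_forall]
    intro n hn
    apply hfaith
    intro x
    obtain ⟨h, rfl⟩ := htr.exists_smul_eq v0 x
    have hmem : h⁻¹ * n * h ∈ N := by
      have := hNn.conj_mem n hn h⁻¹
      simpa using this
    have := hfix _ hmem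
    rw [mul_smul, mul_smul, inv_smul_eq_iff] at this
    exact this
  · -- the subgroup is transitive
    have hOmega : Ω = Set.univ := by
      apply Set.eq_of_subset_of_ncard_le (Set.subset_univ _)
      rw [Set.ncard_univ, Nat.card_eq_fintype_card, hV, h100]
    have htrN : ∀ x : V, ∃ n ∈ N, n • v0 = x := by
      intro x
      have : x ∈ Ω := by rw [hOmega]; trivial
      obtain ⟨n, hn⟩ := this
      exact ⟨n, n.2, hn⟩
    have hnorm : (N.subgroupOf (MulAction.stabilizer H v0)).Normal := hNn.subgroupOf _
    rcases hS.eq_bot_or_eq_top_of_normal _ hnorm with hbot | htop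
    · -- regular
      exfalso
      have hfree : ∀ n ∈ N, n • v0 = v0 → n = 1 := by
        intro n hn h0
        have : (⟨n, h0⟩ : MulAction.stabilizer H v0) ∈ N.subgroupOf (MulAction.stabilizer H v0) := hn
        rw [hbot, Subgroup.mem_bot] at this
        exact congrArg Subtype.val this
      have hinj : Function.Injective (fun n : N => (n : H) • v0) := by
        intro a b hab
        have h0 : (b : H)⁻¹ * a ∈ N := N.mul_mem (N.inv_mem b.2) a.2
        have h1' : ((b : H)⁻¹ * a) • v0 = v0 := by
          rw [mul_smul, inv_smul_eq_iff]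
          exact hab
        have := hfree _ h0 h1'
        exact Subtype.ext (inv_mul_eq_one.mp this).symm
      have hbij : Function.Bijective (fun n : N => (n : H) • v0) := by
        refine ⟨hinj, fun x => ?_⟩
        obtain ⟨n, hn, he⟩ := htrN x
        exact ⟨⟨n, hn⟩, he⟩
      have hcardN : Nat.card N = 100 := by
        rw [Nat.card_congr (Equiv.ofBijective _ hbij), Nat.card_eq_fintype_card, hV]
      obtain ⟨P, hP, hPc⟩ := sylow25 hcardN
      let Y : Finset V := Finset.univ.filter fun x => ∃ p ∈ P, ((p : N) : H) • v0 = x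
      have hYmem : ∀ x, x ∈ Y ↔ ∃ p ∈ P, ((p : N) : H) • v0 = x := fun x => by simp [Y]
      have hYcard : Y.card = 25 := by
        haveI : Fintype P := Fintype.ofFinite _
        have h2 : Y = (Finset.univ : Finset ↥P).image (fun p : ↥P => (((p : N) : H)) • v0) := by
          ext x
          simp only [hYmem, Finset.mem_image, Finset.mem_univ, true_and]
          constructor
          · rintro ⟨p, hp, rfl⟩
            exact ⟨⟨p, hp⟩, rfl⟩
          · rintro ⟨p, rfl⟩
            exact ⟨p, p.2, rfl⟩
        rw [h2, Finset.card_image_of_injective, Finset.card_univ, ← Nat.card_eq_fintype_card, hPc]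
        intro a b hab
        exact Subtype.ext (hinj hab)
      have hYinv : ∀ s ∈ MulAction.stabilizer H v0, ∀ x ∈ Y, s • x ∈ Y := by
        intro s hs x hx
        rw [hYmem] at hx ⊢
        obtain ⟨p, hp, rfl⟩ := hx
        let ϕ : N ≃* N := MulAut.conjNormal s
        have hfx := hP.fixed ϕ
        have hmem : ϕ p ∈ P := by
          have : p ∈ P.comap ϕ.toMonoidHom := by rw [hfx]; exact hp
          exact this
        refine ⟨ϕ p, hmem, ?_⟩
        have hs' : s⁻¹ • v0 = v0 := by
          rw [inv_smul_eq_iff]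
          exact (MulAction.mem_stabilizer_iff.mp hs).symm
        have hϕ : ((ϕ p : N) : H) = s * (p : H) * s⁻¹ := MulAut.conjNormal_apply s p
        rw [hϕ, mul_smul, mul_smul, hs']
      have hY0 : v0 ∈ Y := by
        rw [hYmem]
        exact ⟨1, P.one_mem, by simp⟩
      have := hinv Y hY0 hYinv
      rw [hYcard] at this
      omega
    · right
      have hle : MulAction.stabilizer H v0 ≤ N := Subgroup.subgroupOf_eq_top.mp htop
      rw [eq_top_iff]
      intro h _
      obtain ⟨n, hn, he⟩ := htrN (h • v0)
      have h2 : n⁻¹ * h ∈ MulAction.stabilizer H v0 := by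
        rw [MulAction.mem_stabilizer_iff, mul_smul, inv_smul_eq_iff]
        exact he.symm
      have h3 := N.mul_mem hn (hle h2)
      simpa using h3

end CfsgLib.HSG
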