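/-
The even part of the automorphism group of the point-block graph is simple of order 44352000.
-/
import Cfsg.Agent.Lib.HSG.OddElt
import Cfsg.Agent.Lib.HSG.SimpleCrit

set_option autoImplicit false
set_option linter.unusedVariables false
set_option linter.unusedSectionVars false

namespace CfsgLib.HSG

open Cfsg CfsgLib.Golay CfsgLib.StCert CfsgLib.StCert.W24
open scoped Pointwise

/-- Splitting a set of vertices containing the extra vertex. -/
theorem card_split {a b : Type*} [Fintype a] [Fintype b] [DecidableEq a] [DecidableEq b]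
    (X : Finset (Option (a ⊕ b))) (h : none ∈ X) :
    X.card = 1 + (Finset.univ.filter fun x : a => some (Sum.inl x) ∈ X).card +
      (Finset.univ.filter fun y : b => some (Sum.inr y) ∈ X).card := by
  have hX : X = insert none (((Finset.univ.filter fun x : a => some (Sum.inl x) ∈ X).image fun x => some (Sum.inl x)) ∪
      ((Finset.univ.filter fun y : b => some (Sum.inr y) ∈ X).image fun y => some (Sum.inr y))) := by
    ext v
    rcases v with _ | x | y
    · simp [h]
    · simp
    · simp
  conv_lhs => rw [hX]
  rw [Finset.card_insert_of_notMem (by simp), Finset.card_union_of_disjoint, Finset.card_image_of_injective,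
    Finset.card_image_of_injective]
  · ring
  · intro p q hpq
    simpa using hpq
  · intro p q hpq
    simpa using hpq
  · rw [Finset.disjoint_left]
    intro v hv hv'
    obtain ⟨x, _, rfl⟩ := Finset.mem_image.mp hv
    obtain ⟨y, _, hy⟩ := Finset.mem_image.mp hv'
    simp at hy

theorem filter_card_dich {a : Type*} [Fintype a] [DecidableEq a] (P : a → Prop) [DecidablePred P]
    (h : ∀ x y, P x → P y) (hc : Nonempty a → True := fun _ => trivial) :
    (Finset.univ.filter P).card = 0 ∨ (Finset.univ.filter P).card = Fintype.card a := by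
  by_cases hex : ∃ x, P x
  · right
    obtain ⟨x, hx⟩ := hex
    rw [Finset.filter_true_of_mem (fun y _ => h x y hx), Finset.card_univ]
  · left
    rw [Finset.card_eq_zero, Finset.filter_eq_empty_iff]
    exact fun y _ hy => hex ⟨y, hy⟩

section Trans

variable {α : Type*} [Fintype α] [DecidableEq α] {B : Set (Finset α)}

theorem E_trans_points (hα : Fintype.card α = 22)
    (h3 : MulAction.IsMultiplyPretransitive (setSystemAut B) α 3)
    (E : Subgroup (setSystemAut B)) (hEn : E.Normal) (hEi : E.index = 2) (a c : α) :
    ∃ g ∈ E, ((g : setSystemAut B) : Equiv.Perm α) a = c := by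
  by_cases hac : a = c
  · exact ⟨1, E.one_mem, hac⟩
  haveI h2 : MulAction.IsMultiplyPretransitive (setSystemAut B) α 2 :=
    MulAction.isMultiplyPretransitive_of_le (n := 3) (by norm_num) (by
      rw [Nat.card_eq_fintype_card, hα]
      norm_num)
  haveI h1 : MulAction.IsPretransitive (setSystemAut B) α := MulAction.isPretransitive_of_is_two_pretransitive
  have hstab : (MulAction.stabilizer (setSystemAut B) a).index = 22 := by
    rw [MulAction.index_stabilizer_of_transitive, Nat.card_eq_fintype_card, hα]
  have hmove : ∃ h ∈ E, h • a ≠ a := by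
    by_contra hno
    push Not at hno
    have hle : E ≤ MulAction.stabilizer (setSystemAut B) a := fun h hh => hno h hh
    have := Subgroup.index_dvd_of_le hle
    rw [hstab, hEi] at this
    norm_num at this
  obtain ⟨h, hh, hne⟩ := hmove
  obtain ⟨g, hg1, hg2⟩ := MulAction.is_two_pretransitive_iff.mp h2 (Ne.symm hne) hac
  refine ⟨g * h * g⁻¹, hEn.conj_mem h hh g, ?_⟩
  have hg1' : g⁻¹ • a = a := by
    rw [inv_smul_eq_iff]
    exact hg1.symm
  show (g * h * g⁻¹) • a = c
  rw [mul_smul, mul_smul, hg1', ← hg2]

theorem smul_mem_B (g : setSystemAut B) {x : Finset α} (hx : x ∈ B) : ((g : setSystemAut B) : Equiv.Perm α) • x ∈ B := by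
  obtain ⟨g, hg⟩ := g
  have h : g • B = B := hg
  have h2 : g • x ∈ g • B := Set.smul_mem_smul_set hx
  rwa [h] at h2

/-- The group of the system is transitive on blocks. -/
theorem aut_trans_blocks (hB : IsSteinerSystem 3 6 B)
    (h3 : MulAction.IsMultiplyPretransitive (setSystemAut B) α 3) (b c : ↥B) :
    ∃ g : setSystemAut B, ((g : setSystemAut B) : Equiv.Perm α) • b.1 = c.1 := by
  have hb : b.1.card = 3 + 3 := hB.1 _ b.2
  have hc : c.1.card = 3 + 3 := hB.1 _ c.2
  obtain ⟨s, hs, hsc⟩ := Finset.exists_subset_card_eq (s := b.1) (n := 3) (by omega)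
  obtain ⟨t, ht, htc⟩ := Finset.exists_subset_card_eq (s := c.1) (n := 3) (by omega)
  let es : Fin 3 ≃ ↥s := (Fintype.equivFinOfCardEq (by simpa using hsc)).symm
  let et : Fin 3 ≃ ↥t := (Fintype.equivFinOfCardEq (by simpa using htc)).symm
  let js : Fin 3 ↪ α := es.toEmbedding.trans (Function.Embedding.subtype _)
  let jt : Fin 3 ↪ α := et.toEmbedding.trans (Function.Embedding.subtype _)
  obtain ⟨g, hg⟩ := h3.exists_smul_eq js jt
  refine ⟨g, ?_⟩
  have himg : ((g : setSystemAut B) : Equiv.Perm α) • s = t := by
    apply Finset.eq_of_subset_of_card_le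
    · intro y hy
      obtain ⟨x, hx, rfl⟩ := Finset.mem_smul_finset.mp hy
      have h4 : js (es.symm ⟨x, hx⟩) = x := by simp [js]
      have h5 := DFunLike.congr_fun hg (es.symm ⟨x, hx⟩)
      have h6 : g • js (es.symm ⟨x, hx⟩) = jt (es.symm ⟨x, hx⟩) := h5
      rw [h4] at h6
      have h7 : ((g : setSystemAut B) : Equiv.Perm α) • x = jt (es.symm ⟨x, hx⟩) := h6
      rw [h7]
      exact (et (es.symm ⟨x, hx⟩)).2
    · rw [Finset.card_smul_finset, hsc, htc]
  have h8 : ((g : setSystemAut B) : Equiv.Perm α) • b.1 ∈ B := smul_mem_B g b.2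
  have h9 : t ⊆ ((g : setSystemAut B) : Equiv.Perm α) • b.1 := by
    rw [← himg]
    exact Finset.smul_finset_subset_smul_finset_iff.mpr hs
  obtain ⟨d, -, hU⟩ := hB.2 t htc
  rw [hU _ ⟨h8, h9⟩, hU _ ⟨c.2, ht⟩]

theorem E_trans_blocks (hB : IsSteinerSystem 3 6 B) (hcardB : Nat.card ↥B = 77)
    (h3 : MulAction.IsMultiplyPretransitive (setSystemAut B) α 3)
    (E : Subgroup (setSystemAut B)) (hEi : E.index = 2) (b c : ↥B) :
    ∃ g ∈ E, ((g : setSystemAut B) : Equiv.Perm α) • b.1 = c.1 := by
  let S : Subgroup (setSystemAut B) := MulAction.stabilizer (setSystemAut B) b.1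
  have hSidx : S.index = 77 := by
    rw [MulAction.index_stabilizer]
    have horb : MulAction.orbit (setSystemAut B) b.1 = B := by
      ext x
      constructor
      · rintro ⟨g, rfl⟩
        exact smul_mem_B g b.2
      · intro hx
        obtain ⟨g, hg⟩ := aut_trans_blocks hB h3 b ⟨x, hx⟩
        exact ⟨g, hg⟩
    rw [horb, ← Nat.card_coe_set_eq, hcardB]
  have hout : ∃ t ∈ S, t ∉ E := by
    by_contra hno
    push Not at hno
    have hle : S ≤ E := fun t ht => hno t ht
    have := Subgroup.index_dvd_of_le hle
    rw [hSidx, hEi] at this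
    norm_num at this
  obtain ⟨t, htS, htE⟩ := hout
  obtain ⟨g, hg⟩ := aut_trans_blocks hB h3 b c
  by_cases hgE : g ∈ E
  · exact ⟨g, hgE, hg⟩
  · refine ⟨g * t, (Subgroup.mul_mem_iff_of_index_two hEi).mpr (iff_of_false hgE htE), ?_⟩
    have ht : ((t : setSystemAut B) : Equiv.Perm α) • b.1 = b.1 := htS
    show (((g : setSystemAut B) : Equiv.Perm α) * ((t : setSystemAut B) : Equiv.Perm α)) • b.1 = c.1
    rw [mul_smul, ht, hg]

end Trans

section Main

variable {α : Type*} [Fintype α] [DecidableEq α] {B : Set (Finset α)} [Fintype ↥B]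

theorem extAut_eq_none_of_inv (c : pointBlockGraph B ≃g pointBlockGraph B) {x : Option (α ⊕ ↥B)} (hc : c none = x) :
    c⁻¹ x = none := by
  rw [← hc]
  exact aut_inv_apply_self _ _ _

/-- The sign of an automorphism as a permutation of the vertices. -/
noncomputable def sgnAut (B : Set (Finset α)) [Fintype ↥B] : (pointBlockGraph B ≃g pointBlockGraph B) →* ℤˣ :=
  Equiv.Perm.sign.comp (autPerm (pointBlockGraph B))

theorem sgn_surj (g : setSystemAut B) (hg : sgnAut B (extAut g) = -1) :
    Function.Surjective (sgnAut B) := by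
  intro u
  rcases Int.units_eq_one_or u with rfl | rfl
  · exact ⟨1, map_one _⟩
  · exact ⟨_, hg⟩

theorem card_units_two : Nat.card ℤˣ = 2 := by
  rw [Nat.card_eq_fintype_card]
  rfl

theorem index_ker_sgn (g : setSystemAut B) (hg : sgnAut B (extAut g) = -1) : (sgnAut B).ker.index = 2 := by
  rw [Subgroup.index_ker, MonoidHom.range_eq_top.mpr (sgn_surj g hg), Subgroup.card_top, card_units_two]

theorem hs_result (hα : Fintype.card α = 22) (hB : IsSteinerSystem 3 6 B) :
    IsHS (sgnAut B).ker := by
  obtain ⟨g0, hg0⟩ := exists_odd_aut (B := B) hα hB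
  have hg0' : sgnAut B (extAut g0) = -1 := hg0
  obtain ⟨hcardA, h3, E, hEi, hEs, hEc⟩ := StCert.W24.aut22_result hα hB
  haveI : Finite (setSystemAut B) := Nat.finite_of_card_ne_zero (by rw [hcardA]; norm_num)
  haveI hEsimple : IsSimpleGroup E := hEs
  -- the kernel on the group of the system
  let χ : setSystemAut B →* ℤˣ := (sgnAut B).comp extAut
  have hEle : E ≤ χ.ker := by
    let χE : E →* ℤˣ := χ.comp E.subtype
    rcases hEs.eq_bot_or_eq_top_of_normal χE.ker inferInstance with h | h
    · exfalso
      have hinj : Function.Injective χE := (MonoidHom.ker_eq_bot_iff _).mp h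
      have := Nat.card_le_card_of_injective _ hinj
      rw [hEc, card_units_two] at this
      omega
    · intro x hx
      have : (⟨x, hx⟩ : E) ∈ χE.ker := by rw [h]; trivial
      exact this
  have hKne : χ.ker ≠ ⊤ := by
    intro h
    have : g0 ∈ χ.ker := by rw [h]; trivial
    have h2 : sgnAut B (extAut g0) = 1 := this
    rw [hg0'] at h2
    exact absurd h2 (by decide)
  have hKidx : χ.ker.index = 2 := by
    have h1 : χ.ker.index ∣ E.index := Subgroup.index_dvd_of_le hEle
    rw [hEi] at h1
    have h2 : χ.ker.index ≠ 1 := fun h => hKne (Subgroup.index_eq_one.mp h)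
    have h3 := (Nat.dvd_prime Nat.prime_two).mp h1
    tauto
  have hEK : E = χ.ker := by
    apply Subgroup.eq_of_le_of_card_ge hEle
    have e1 := Subgroup.card_mul_index χ.ker
    have e2 := Subgroup.card_mul_index E
    rw [hKidx] at e1
    rw [hEi] at e2
    omega
  have hEn : E.Normal := by rw [hEK]; infer_instance
  have hinE : ∀ g : setSystemAut B, g ∈ E ↔ sgnAut B (extAut g) = 1 := by
    intro g
    rw [hEK]
    exact Iff.rfl
  have hcardB : Fintype.card ↥B = 77 := by
    have h := card_vertices hα hB
    rw [Nat.card_eq_fintype_card, Fintype.card_option, Fintype.card_sum, hα] at h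
    omega
  refine ⟨?_, ?_⟩
  · -- simplicity
    have hV : Fintype.card (Option (α ⊕ ↥B)) = 100 := by
      rw [Fintype.card_option, Fintype.card_sum, hα, hcardB]
    -- an odd element fixing any vertex
    have hodd : ∀ x : Option (α ⊕ ↥B), ∃ t : pointBlockGraph B ≃g pointBlockGraph B, t x = x ∧ sgnAut B t = -1 := by
      intro x
      obtain ⟨c, hc⟩ := aut_pretrans hα hB none x
      refine ⟨c * extAut g0 * c⁻¹, ?_, ?_⟩
      · rw [aut_mul_apply, aut_mul_apply, extAut_eq_none_of_inv c hc]
        exact hc
      · rw [map_mul, map_mul, map_inv, hg0']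
        rw [mul_comm (sgnAut B c) (-1), mul_assoc, mul_inv_cancel, mul_one]
    apply simple_crit (H := (sgnAut B).ker) (V := Option (α ⊕ ↥B)) hV ?_ ?_ none ?_ ?_
    · -- transitive
      constructor
      intro x y
      obtain ⟨e, he⟩ := aut_pretrans hα hB x y
      obtain ⟨t, ht, hts⟩ := hodd x
      by_cases hes : sgnAut B e = 1
      · exact ⟨⟨e, hes⟩, he⟩
      · have hes' : sgnAut B e = -1 := by
          rcases Int.units_eq_one_or (sgnAut B e) with h | h
          · exact absurd h hes
          · exact h
        refine ⟨⟨e * t, ?_⟩, ?_⟩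
        · show sgnAut B (e * t) = 1
          rw [map_mul, hes', hts]
          rfl
        · show (e * t) x = y
          rw [aut_mul_apply, ht, he]
    · -- faithful
      intro h hh
      apply Subtype.ext
      apply RelIso.ext
      intro x
      exact hh x
    · -- stabiliser is simple
      let ψ : E →* MulAction.stabilizer (sgnAut B).ker (none : Option (α ⊕ ↥B)) :=
        { toFun := fun g => ⟨⟨extAut g.1, (hinE g.1).mp g.2⟩, extAut_none g.1⟩
          map_one' := by
            apply Subtype.ext
            apply Subtype.ext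
            exact map_one extAut
          map_mul' := fun a b => by
            apply Subtype.ext
            apply Subtype.ext
            exact map_mul extAut a.1 b.1 }
      have hψ : Function.Bijective ψ := by
        constructor
        · intro a b hab
          have h1 : extAut a.1 = extAut b.1 := congrArg (fun x => ((x : (sgnAut B).ker) : pointBlockGraph B ≃g pointBlockGraph B)) (congrArg Subtype.val hab)
          exact Subtype.ext (extAut_inj h1)
        · rintro ⟨⟨e, he⟩, hs⟩
          have hnone : e none = none := hs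
          obtain ⟨g, hg⟩ := extAut_surj hB e hnone
          have hgE : g ∈ E := (hinE g).mpr (by rw [hg]; exact he)
          refine ⟨⟨g, hgE⟩, ?_⟩
          apply Subtype.ext
          apply Subtype.ext
          exact hg
      exact (MulEquiv.ofBijective ψ hψ).symm.isSimpleGroup
    · -- invariant sets
      intro X h0 hX
      have hstab : ∀ g ∈ E, ∀ x ∈ X, extAut g x ∈ X := by
        intro g hg x hx
        exact hX ⟨extAut g, (hinE g).mp hg⟩ (extAut_none g) x hx
      have h1 : ∀ a c : α, some (Sum.inl a) ∈ X → some (Sum.inl c) ∈ X := by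
        intro a c ha
        obtain ⟨g, hg, hgc⟩ := E_trans_points hα h3 E hEn hEi a c
        have := hstab g hg _ ha
        rwa [extAut_inl, hgc] at this
      have h2 : ∀ b c : ↥B, some (Sum.inr b) ∈ X → some (Sum.inr c) ∈ X := by
        intro b c hb
        obtain ⟨g, hg, hgc⟩ := E_trans_blocks hB (by rw [Nat.card_eq_fintype_card, hcardB]) h3 E hEi b c
        have := hstab g hg _ hb
        rw [extAut_inr] at this
        have he : (⟨b.1.image ((g : setSystemAut B) : Equiv.Perm α), (image_aut g b.1).mp b.2⟩ : ↥B) = c := Subtype.ext hgc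
        rwa [he] at this
      rw [card_split X h0]
      have e1 := filter_card_dich (fun x : α => some (Sum.inl x) ∈ X) h1
      have e2 := filter_card_dich (fun x : ↥B => some (Sum.inr x) ∈ X) h2
      rw [hα] at e1
      rw [hcardB] at e2
      rcases e1 with e1 | e1 <;> rcases e2 with e2 | e2 <;> rw [e1, e2] <;> norm_num
  · -- order
    have h1 := Subgroup.card_mul_index (sgnAut B).ker
    rw [index_ker_sgn g0 hg0', card_aut hα hB] at h1
    omega

end Main

end CfsgLib.HSG
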